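import Cfsg.Agent.S3980
import Mathlib

/-!
Uniqueness of the Schur cover over `Q` when `|Q^ab|` and `|A|` are coprime
(helper17; builds on helper11's `cover_inter_trivial`).
-/

set_option autoImplicit false
universe u v w
open Cfsg Cfsg.Agent.Helper11

namespace Cfsg.Agent.Helper17.SchurUniq

/-- `x ^ |Q^ab|` lies in the commutator subgroup of a stem extension of `Q`. -/
theorem pow_mem_commutator {Q : Type u} [Group Q] [Finite Q] {Γ : Type v} [Group Γ] (σ : Γ →* Q)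
    (hσ : Cfsg.IsStemExtension σ) (x : Γ) :
    x ^ Nat.card (Abelianization Q) ∈ commutator Γ := by
  obtain ⟨hs, _, hd⟩ := hσ
  have h1 : σ (x ^ Nat.card (Abelianization Q)) ∈ commutator Q := by
    rw [← Abelianization.ker_of Q, MonoidHom.mem_ker, map_pow, map_pow]
    exact pow_card_eq_one'
  have h2 : σ (x ^ Nat.card (Abelianization Q)) ∈ Subgroup.map σ (commutator Γ) := by
    rw [commutator_def, Subgroup.map_commutator, Subgroup.map_top_of_surjective σ hs,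
      ← commutator_def]
    exact h1
  obtain ⟨c, hc, hcx⟩ := h2
  have h3 : c⁻¹ * x ^ Nat.card (Abelianization Q) ∈ σ.ker := by
    rw [MonoidHom.mem_ker, map_mul, map_inv, hcx, inv_mul_cancel]
  have h4 := (commutator Γ).mul_mem hc (hd h3)
  rwa [mul_inv_cancel_left] at h4

theorem half {Q : Type u} [Group Q] {A : Type*} [CommGroup A]
    (hA : Cfsg.HasSchurMultiplier Q A)
    {Γ : Type v} [Group Γ] [Finite Γ] (σ : Γ →* Q)
    (hσ : Cfsg.IsStemExtension σ) (hk : Nonempty (σ.ker ≃* A))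
    {F : Type w} [Group F] [Finite F] (π : F →* Γ) (hπs : Function.Surjective π)
    (hcentF : ∀ f : F, σ (π f) = 1 → f ∈ Subgroup.center F)
    (m n : ℕ) (hcop : Nat.Coprime m n) (hm : ∀ x : Γ, x ^ m ∈ commutator Γ)
    (hkp : ∀ f : F, π f = 1 → f ^ n = 1) :
    (∀ t : F, t ^ m ∈ commutator F → π t = 1 → t = 1) ∧
    (∀ x : Γ, ∃ t : F, t ^ m ∈ commutator F ∧ π t = x) := by
  have hcit := Cfsg.Agent.S3980.cover_inter_trivial hA σ hσ hk π hπs hcentF
  constructor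
  · intro t ht hπt
    have h1 : t ^ m = 1 := hcit _ (by rw [MonoidHom.mem_ker, map_pow, hπt, one_pow]) ht
    have h2 : t ^ n = 1 := hkp t hπt
    have h3 : orderOf t ∣ Nat.gcd m n :=
      Nat.dvd_gcd (orderOf_dvd_of_pow_eq_one h1) (orderOf_dvd_of_pow_eq_one h2)
    have h4 : Nat.gcd m n = 1 := hcop
    rw [h4, Nat.dvd_one] at h3
    exact orderOf_eq_one_iff.mp h3
  · intro x
    obtain ⟨t₀, ht₀⟩ := hπs x
    have hmap : x ^ m ∈ Subgroup.map π (commutator F) := by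
      rw [commutator_def, Subgroup.map_commutator, Subgroup.map_top_of_surjective π hπs,
        ← commutator_def]
      exact hm x
    obtain ⟨c, hc, hcx⟩ := hmap
    obtain ⟨k, hkdef⟩ : ∃ k : F, k = c⁻¹ * t₀ ^ m := ⟨_, rfl⟩
    have hk1 : π k = 1 := by
      rw [hkdef, map_mul, map_inv, map_pow, hcx, ht₀, inv_mul_cancel]
    have hkn : k ^ n = 1 := hkp k hk1
    obtain ⟨a, b, hab⟩ := Nat.isCoprime_iff_coprime.mpr hcop
    have hk0 : (k ^ a) ^ m = k := by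
      calc (k ^ a) ^ m = k ^ (a * (m : ℤ)) := by rw [zpow_mul, zpow_natCast]
        _ = k ^ (a * (m : ℤ)) * k ^ (b * (n : ℤ)) := by
            rw [zpow_mul' k b n, zpow_natCast, hkn, one_zpow, mul_one]
        _ = k := by rw [← zpow_add, hab, zpow_one]
    have hkc : k ∈ Subgroup.center F := hcentF k (by rw [hk1, map_one])
    have hk0c : k ^ a ∈ Subgroup.center F := Subgroup.zpow_mem _ hkc a
    have hk0π : π (k ^ a) = 1 := by rw [map_zpow, hk1, one_zpow]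
    refine ⟨t₀ * (k ^ a)⁻¹, ?_, by rw [map_mul, map_inv, hk0π, inv_one, mul_one, ht₀]⟩
    have hcomm : Commute t₀ (k ^ a)⁻¹ :=
      Subgroup.mem_center_iff.mp (Subgroup.inv_mem _ hk0c) t₀
    have h5 : t₀ ^ m * k⁻¹ = c := by rw [hkdef]; group
    rw [hcomm.mul_pow, inv_pow, hk0, h5]
    exact hc

theorem iso_of_coprime {Q : Type u} [Group Q] [Finite Q] {A : Type v} [CommGroup A]
    (hA : Cfsg.HasSchurMultiplier Q A)
    (hcop : Nat.Coprime (Nat.card (Abelianization Q)) (Nat.card A))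
    (Γ₁ Γ₂ : Type u) [Group Γ₁] [Finite Γ₁] [Group Γ₂] [Finite Γ₂] (σ₁ : Γ₁ →* Q) (σ₂ : Γ₂ →* Q)
    (h₁ : Cfsg.IsStemExtension σ₁) (h₂ : Cfsg.IsStemExtension σ₂)
    (k₁ : Nonempty (σ₁.ker ≃* A)) (k₂ : Nonempty (σ₂.ker ≃* A)) :
    ∃ e : Γ₁ ≃* Γ₂, σ₂.comp e.toMonoidHom = σ₁ := by
  let T : Subgroup (Γ₁ × Γ₂) := sc_fib σ₁ σ₂
  have hT : ∀ y, y ∈ T ↔ σ₁ y.1 = σ₂ y.2 := fun _ => Iff.rfl
  let p1 : T →* Γ₁ := (MonoidHom.fst Γ₁ Γ₂).comp T.subtype
  let p2 : T →* Γ₂ := (MonoidHom.snd Γ₁ Γ₂).comp T.subtype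
  have hP : ∀ t : T, σ₁ (p1 t) = σ₂ (p2 t) := fun t => (hT t.1).mp t.2
  have hp1s : Function.Surjective p1 := by
    intro g
    obtain ⟨x, hx⟩ := h₂.1 (σ₁ g)
    exact ⟨⟨(g, x), (hT _).mpr hx.symm⟩, rfl⟩
  have hp2s : Function.Surjective p2 := by
    intro d
    obtain ⟨x, hx⟩ := h₁.1 (σ₂ d)
    exact ⟨⟨(x, d), (hT _).mpr hx⟩, rfl⟩
  have hcent : ∀ t : T, σ₁ (p1 t) = 1 → t ∈ Subgroup.center T := by
    intro t ht
    have ht2 : σ₂ (p2 t) = 1 := by rw [← hP, ht]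
    have c1 := Subgroup.mem_center_iff.mp (h₁.2.1 (MonoidHom.mem_ker.mpr ht))
    have c2 := Subgroup.mem_center_iff.mp (h₂.2.1 (MonoidHom.mem_ker.mpr ht2))
    rw [Subgroup.mem_center_iff]
    intro s
    apply Subtype.ext
    apply Prod.ext
    · exact c1 s.1.1
    · exact c2 s.1.2
  have hcent2 : ∀ t : T, σ₂ (p2 t) = 1 → t ∈ Subgroup.center T :=
    fun t ht => hcent t (by rw [hP, ht])
  obtain ⟨e₁⟩ := k₁
  obtain ⟨e₂⟩ := k₂
  have hpow1 : ∀ (t : T) (j : ℕ), (t ^ j).1.1 = (p1 t) ^ j := fun t j => by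
    rw [← map_pow]; rfl
  have hpow2 : ∀ (t : T) (j : ℕ), (t ^ j).1.2 = (p2 t) ^ j := fun t j => by
    rw [← map_pow]; rfl
  have hkp1 : ∀ t : T, p1 t = 1 → t ^ Nat.card A = 1 := by
    intro t ht
    have ht2 : σ₂ (p2 t) = 1 := by rw [← hP, ht, map_one]
    have hy : (⟨p2 t, MonoidHom.mem_ker.mpr ht2⟩ : σ₂.ker) ^ Nat.card A = 1 := by
      rw [← Nat.card_congr e₂.toEquiv]; exact pow_card_eq_one'
    have hy' : (p2 t) ^ Nat.card A = 1 := congrArg Subtype.val hy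
    apply Subtype.ext
    apply Prod.ext
    · show (t ^ Nat.card A).1.1 = 1
      rw [hpow1, ht, one_pow]
    · show (t ^ Nat.card A).1.2 = 1
      rw [hpow2, hy']
  have hkp2 : ∀ t : T, p2 t = 1 → t ^ Nat.card A = 1 := by
    intro t ht
    have ht1 : σ₁ (p1 t) = 1 := by rw [hP, ht, map_one]
    have hy : (⟨p1 t, MonoidHom.mem_ker.mpr ht1⟩ : σ₁.ker) ^ Nat.card A = 1 := by
      rw [← Nat.card_congr e₁.toEquiv]; exact pow_card_eq_one'
    have hy' : (p1 t) ^ Nat.card A = 1 := congrArg Subtype.val hy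
    apply Subtype.ext
    apply Prod.ext
    · show (t ^ Nat.card A).1.1 = 1
      rw [hpow1, hy']
    · show (t ^ Nat.card A).1.2 = 1
      rw [hpow2, ht, one_pow]
  obtain ⟨hi1, hs1⟩ := half hA σ₁ h₁ ⟨e₁⟩ p1 hp1s hcent _ _ hcop (pow_mem_commutator σ₁ h₁) hkp1
  obtain ⟨hi2, hs2⟩ := half hA σ₂ h₂ ⟨e₂⟩ p2 hp2s hcent2 _ _ hcop (pow_mem_commutator σ₂ h₂) hkp2
  let T₀ : Subgroup T := Subgroup.comap (Abelianization.of : T →* Abelianization T)
      (powMonoidHom (Nat.card (Abelianization Q))).ker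
  have hT₀ : ∀ t : T, t ∈ T₀ ↔ t ^ Nat.card (Abelianization Q) ∈ commutator T := by
    intro t
    show (Abelianization.of t) ∈ (powMonoidHom (Nat.card (Abelianization Q))).ker ↔ _
    rw [MonoidHom.mem_ker, powMonoidHom_apply, ← map_pow, ← Abelianization.ker_of T,
      MonoidHom.mem_ker]
  let f1 : T₀ →* Γ₁ := p1.comp T₀.subtype
  let f2 : T₀ →* Γ₂ := p2.comp T₀.subtype
  have hb1 : Function.Bijective f1 := by
    constructor
    · rw [injective_iff_map_eq_one]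
      intro t ht
      exact Subtype.ext (hi1 t.1 ((hT₀ t.1).mp t.2) ht)
    · intro x
      obtain ⟨t, ht, htx⟩ := hs1 x
      exact ⟨⟨t, (hT₀ t).mpr ht⟩, htx⟩
  have hb2 : Function.Bijective f2 := by
    constructor
    · rw [injective_iff_map_eq_one]
      intro t ht
      exact Subtype.ext (hi2 t.1 ((hT₀ t.1).mp t.2) ht)
    · intro x
      obtain ⟨t, ht, htx⟩ := hs2 x
      exact ⟨⟨t, (hT₀ t).mpr ht⟩, htx⟩
  let E1 : T₀ ≃* Γ₁ := MulEquiv.ofBijective f1 hb1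
  let E2 : T₀ ≃* Γ₂ := MulEquiv.ofBijective f2 hb2
  refine ⟨E1.symm.trans E2, ?_⟩
  ext x
  have h1 : f1 (E1.symm x) = x := E1.apply_symm_apply x
  have h2 : σ₁ (f1 (E1.symm x)) = σ₂ (f2 (E1.symm x)) := hP (E1.symm x).1
  calc σ₂ (E2 (E1.symm x)) = σ₂ (f2 (E1.symm x)) := rfl
    _ = σ₁ (f1 (E1.symm x)) := h2.symm
    _ = σ₁ x := by rw [h1]

end Cfsg.Agent.Helper17.SchurUniq
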