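import Cfsg.Agent.S3980
import Mathlib

/-!
Non-uniqueness of the Schur cover over `Q` when a prime divides both `|Q^ab|` and `|A|`:
twist a cover by a cyclic extension (helper17; uses helper11's `sc_eq_on_comm`).
-/

set_option autoImplicit false
universe u v w
open Cfsg Cfsg.Agent.Helper11

namespace Cfsg.Agent.Helper17.SchurUniq

theorem mem_commutator_of_map {Q : Type u} [Group Q] {Γ : Type v} [Group Γ] (σ : Γ →* Q)
    (hσ : Cfsg.IsStemExtension σ) (y : Γ) (h1 : σ y ∈ commutator Q) : y ∈ commutator Γ := by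
  obtain ⟨hs, _, hd⟩ := hσ
  have h2 : σ y ∈ Subgroup.map σ (commutator Γ) := by
    rw [commutator_def, Subgroup.map_commutator, Subgroup.map_top_of_surjective σ hs,
      ← commutator_def]
    exact h1
  obtain ⟨c, hc, hcx⟩ := h2
  have h3 : c⁻¹ * y ∈ σ.ker := by
    rw [MonoidHom.mem_ker, map_mul, map_inv, hcx, inv_mul_cancel]
  have h4 := (commutator Γ).mul_mem hc (hd h3)
  rwa [mul_inv_cancel_left] at h4

theorem exists_not_pow {K : Type*} [Group K] [Finite K] (p d : ℕ) [Fact p.Prime] (hpd : p ∣ d)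
    (hpK : p ∣ Nat.card K) : ∃ a : K, ∀ b : K, b ^ d ≠ a := by
  by_contra hcon
  simp only [not_exists, not_forall, ne_eq, not_not] at hcon
  have hsurj : Function.Surjective (fun b : K => b ^ d) := hcon
  have hinj := Finite.injective_iff_surjective.mpr hsurj
  obtain ⟨x, hx⟩ := exists_prime_orderOf_dvd_card' p hpK
  obtain ⟨r, rfl⟩ := hpd
  have h1 : x ^ (p * r) = 1 := by rw [pow_mul, ← hx, pow_orderOf_eq_one, one_pow]
  have h2 : x = 1 := hinj (show x ^ (p * r) = 1 ^ (p * r) by rw [h1, one_pow])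
  rw [h2, orderOf_one] at hx
  exact (Fact.out : p.Prime).one_lt.ne hx

theorem exists_lam {Q : Type u} [Group Q] [Finite Q] (p : ℕ) [Fact p.Prime]
    (hp : p ∣ Nat.card (Abelianization Q)) :
    ∃ (d : ℕ) (lam : Q →* Multiplicative (ZMod d)) (q : Q), 1 < d ∧ p ∣ d ∧
      lam q = Multiplicative.ofAdd 1 ∧ q ^ d ∈ commutator Q := by
  classical
  obtain ⟨ι, hι, n, hn, ⟨e⟩⟩ :=
    CommGroup.equiv_prod_multiplicative_zmod_of_finite (Abelianization Q)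
  have hcard : Nat.card (Abelianization Q) = ∏ i, n i := by
    rw [Nat.card_congr e.toEquiv, Nat.card_pi]
    refine Finset.prod_congr rfl (fun i _ => ?_)
    exact Nat.card_zmod (n i)
  rw [hcard] at hp
  obtain ⟨i₀, _, hi₀⟩ := (Nat.Prime.prime (Fact.out : p.Prime)).exists_mem_finset_dvd hp
  obtain ⟨q, hq⟩ : ∃ q : Q, Abelianization.of q =
      e.symm (Pi.mulSingle i₀ (Multiplicative.ofAdd (1 : ZMod (n i₀)))) := by
    obtain ⟨y, hy⟩ := QuotientGroup.mk_surjective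
      (e.symm (Pi.mulSingle i₀ (Multiplicative.ofAdd (1 : ZMod (n i₀)))))
    exact ⟨y, hy⟩
  refine ⟨n i₀, ((Pi.evalMonoidHom _ i₀).comp e.toMonoidHom).comp Abelianization.of, q, hn i₀,
    hi₀, ?_, ?_⟩
  · show (e (Abelianization.of q)) i₀ = _
    rw [hq, MulEquiv.apply_symm_apply, Pi.mulSingle_eq_same]
  · rw [← Abelianization.ker_of Q, MonoidHom.mem_ker, map_pow, hq]
    apply e.injective
    have h1 : (Multiplicative.ofAdd (1 : ZMod (n i₀))) ^ (n i₀) = 1 := by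
      rw [← ofAdd_nsmul, nsmul_one, ZMod.natCast_self]; rfl
    rw [map_pow, MulEquiv.apply_symm_apply, ← Pi.mulSingle_pow, h1, Pi.mulSingle_one, e.map_one]

theorem exists_noniso {Q : Type u} [Group Q] [Finite Q] {A : Type v} [CommGroup A]
    (hA : Cfsg.HasSchurMultiplier Q A)
    (hncop : ¬ Nat.Coprime (Nat.card (Abelianization Q)) (Nat.card A)) :
    ∃ (Γ₁ Γ₂ : Type u) (_ : Group Γ₁) (_ : Finite Γ₁) (_ : Group Γ₂) (_ : Finite Γ₂)
      (σ₁ : Γ₁ →* Q) (σ₂ : Γ₂ →* Q), Cfsg.IsStemExtension σ₁ ∧ Cfsg.IsStemExtension σ₂ ∧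
      Nonempty (σ₁.ker ≃* A) ∧ Nonempty (σ₂.ker ≃* A) ∧
      ¬ ∃ e : Γ₁ ≃* Γ₂, σ₂.comp e.toMonoidHom = σ₁ := by
  obtain ⟨p, hp, hpm, hpn⟩ := Nat.Prime.not_coprime_iff_dvd.mp hncop
  haveI : Fact p.Prime := ⟨hp⟩
  obtain ⟨Γ, iΓ, fΓ, σ, hσ, ⟨e₁⟩⟩ := hA.1
  obtain ⟨hσs, hσc, hσd⟩ := id hσ
  obtain ⟨d, lam, q, hd1, hpd, hlamq, hqd⟩ := exists_lam (Q := Q) p hpm
  haveI : NeZero d := ⟨by omega⟩
  have hpK : p ∣ Nat.card σ.ker := by rw [Nat.card_congr e₁.toEquiv]; exact hpn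
  obtain ⟨a', ha'⟩ := exists_not_pow (K := σ.ker) p d hpd hpK
  obtain ⟨a, ha, hnp⟩ : ∃ a : Γ, σ a = 1 ∧ ∀ b : Γ, σ b = 1 → b ^ d ≠ a :=
    ⟨a'.1, MonoidHom.mem_ker.mp a'.2, fun b hb hba =>
      ha' ⟨b, MonoidHom.mem_ker.mpr hb⟩ (Subtype.ext hba)⟩
  have hcen : ∀ b : Γ, σ b = 1 → ∀ y : Γ, y * b = b * y := fun b hb =>
    Subgroup.mem_center_iff.mp (hσc (MonoidHom.mem_ker.mpr hb))
  have hac : ∀ y : Γ, y * a = a * y := hcen a ha
  obtain ⟨o, ho⟩ : ∃ o, o = orderOf a := ⟨_, rfl⟩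
  have ho0 : 0 < o := by rw [ho]; exact orderOf_pos a
  have hd0 : 0 < d := by omega
  haveI : NeZero (d * o) := ⟨(Nat.mul_pos hd0 ho0).ne'⟩
  obtain ⟨π, hπdef⟩ : ∃ π : Multiplicative (ZMod (d * o)) →* Multiplicative (ZMod d),
      ∀ c, π c = Multiplicative.ofAdd
        ((ZMod.castHom (dvd_mul_right d o) (ZMod d)) (Multiplicative.toAdd c)) :=
    ⟨(ZMod.castHom (dvd_mul_right d o) (ZMod d)).toAddMonoidHom.toMultiplicative, fun _ => rfl⟩
  obtain ⟨g, hgdef⟩ : ∃ g : Multiplicative (ZMod (d * o)), g = Multiplicative.ofAdd 1 := ⟨_, rfl⟩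
  have hπg : π g = Multiplicative.ofAdd 1 := by
    rw [hπdef, hgdef, toAdd_ofAdd, map_one]
  have hgpow : ∀ z : ℤ, g ^ z = Multiplicative.ofAdd ((z : ZMod (d * o))) := by
    intro z; rw [hgdef, ← ofAdd_zsmul, zsmul_one]
  have hC3 : ∀ z : ℤ, g ^ ((d : ℤ) * z) = 1 → a ^ z = 1 := by
    intro z hz
    rw [hgpow, ofAdd_eq_one, ZMod.intCast_zmod_eq_zero_iff_dvd] at hz
    have h2 : ((d : ℤ) * (o : ℤ)) ∣ (d : ℤ) * z := by exact_mod_cast hz
    have h3 : (o : ℤ) ∣ z := (Int.mul_dvd_mul_iff_left (by exact_mod_cast hd0.ne')).mp h2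
    rw [ho] at h3
    exact orderOf_dvd_iff_zpow_eq_one.mp h3
  have hC2 : ∀ c : Multiplicative (ZMod (d * o)), π c = 1 → ∃ j : ℤ, c = g ^ ((d : ℤ) * j) := by
    intro c hc
    rw [hπdef, ofAdd_eq_one, ZMod.castHom_apply, ← ZMod.natCast_val,
      ZMod.natCast_eq_zero_iff] at hc
    obtain ⟨j, hj⟩ := hc
    refine ⟨j, ?_⟩
    rw [hgpow]
    have h1 : ((((d : ℤ) * (j : ℤ) : ℤ)) : ZMod (d * o)) = Multiplicative.toAdd c := by
      rw [← ZMod.natCast_zmod_val (Multiplicative.toAdd c), hj]; push_cast; rfl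
    rw [h1]; rfl
  have hπsurj : ∀ ℓ : Multiplicative (ZMod d), ∃ c : Multiplicative (ZMod (d * o)), π c = ℓ := by
    intro ℓ
    obtain ⟨x, hx⟩ := ZMod.castHom_surjective (dvd_mul_right d o) (Multiplicative.toAdd ℓ)
    exact ⟨Multiplicative.ofAdd x, by rw [hπdef, toAdd_ofAdd, hx]; rfl⟩
  -- the fibre product and the antidiagonal
  obtain ⟨S, hS⟩ : ∃ S : Subgroup (Γ × Multiplicative (ZMod (d * o))),
      ∀ y, y ∈ S ↔ lam (σ y.1) = π y.2 :=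
    ⟨(lam.comp (σ.comp (MonoidHom.fst Γ _))).eqLocus (π.comp (MonoidHom.snd Γ _)),
      fun _ => Iff.rfl⟩
  have hgd : π (g ^ d) = 1 := by
    rw [map_pow, hπg, ← ofAdd_nsmul, nsmul_one, ZMod.natCast_self]; rfl
  have hz₀ : ((a, (g ^ d)⁻¹) : Γ × Multiplicative (ZMod (d * o))) ∈ S := by
    rw [hS]; show lam (σ a) = π ((g ^ d)⁻¹); rw [ha, map_one, map_inv, hgd, inv_one]
  obtain ⟨z₀, hz₀def⟩ : ∃ z₀ : S, z₀ = ⟨(a, (g ^ d)⁻¹), hz₀⟩ := ⟨_, rfl⟩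
  have hz₀c : ∀ s : S, s * z₀ = z₀ * s := by
    intro s; rw [hz₀def]; apply Subtype.ext; apply Prod.ext
    · exact hac s.1.1
    · exact mul_comm _ _
  have hz₀pow : ∀ k : ℤ, ((z₀ ^ k : S) : Γ × Multiplicative (ZMod (d * o))) =
      (a ^ k, ((g ^ d)⁻¹) ^ k) := by
    intro k; rw [Subgroup.coe_zpow, hz₀def]; rfl
  haveI hN : (Subgroup.zpowers z₀).Normal := ⟨by
    intro n hn s
    obtain ⟨k, rfl⟩ := Subgroup.mem_zpowers_iff.mp hn
    have hc : Commute s (z₀ ^ k) := Commute.zpow_right (hz₀c s) k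
    rw [hc.eq, mul_inv_cancel_right]
    exact hn⟩
  obtain ⟨τ₀, hτ₀⟩ : ∃ τ₀ : S →* Q, ∀ s : S, τ₀ s = σ s.1.1 :=
    ⟨σ.comp ((MonoidHom.fst Γ _).comp S.subtype), fun _ => rfl⟩
  have hNτ : Subgroup.zpowers z₀ ≤ τ₀.ker := by
    rw [Subgroup.zpowers_le, MonoidHom.mem_ker, hτ₀, hz₀def]; exact ha
  obtain ⟨σ₂, hσ₂⟩ : ∃ σ₂ : S ⧸ Subgroup.zpowers z₀ →* Q,
      ∀ s : S, σ₂ (QuotientGroup.mk s) = σ s.1.1 :=
    ⟨QuotientGroup.lift (Subgroup.zpowers z₀) τ₀ hNτ, fun s => hτ₀ s⟩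
  obtain ⟨pr1, hpr1⟩ : ∃ pr1 : S →* Γ, ∀ s : S, pr1 s = s.1.1 :=
    ⟨(MonoidHom.fst Γ _).comp S.subtype, fun _ => rfl⟩
  obtain ⟨pr2, hpr2⟩ : ∃ pr2 : S →* Multiplicative (ZMod (d * o)), ∀ s : S, pr2 s = s.1.2 :=
    ⟨(MonoidHom.snd Γ _).comp S.subtype, fun _ => rfl⟩
  have hlift : ∀ y : Γ, ∃ c : Multiplicative (ZMod (d * o)), ((y, c) : Γ × _) ∈ S := by
    intro y
    obtain ⟨c, hc⟩ := hπsurj (lam (σ y))
    exact ⟨c, (hS _).mpr hc.symm⟩
  have hpr1s : Function.Surjective pr1 := by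
    intro y
    obtain ⟨c, hc⟩ := hlift y
    exact ⟨⟨(y, c), hc⟩, by rw [hpr1]⟩
  have hb1 : ∀ b : Γ, σ b = 1 → ((b, 1) : Γ × Multiplicative (ZMod (d * o))) ∈ S := by
    intro b hb; rw [hS]; show lam (σ b) = π 1; rw [hb, map_one, map_one]
  have hK : ∀ y : Γ, y ∈ commutator Γ → ∃ s : S, s ∈ commutator S ∧ s.1 = (y, 1) := by
    intro y hy
    have h1 : y ∈ Subgroup.map pr1 (commutator S) := by
      rw [commutator_def, Subgroup.map_commutator, Subgroup.map_top_of_surjective pr1 hpr1s,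
        ← commutator_def]
      exact hy
    obtain ⟨s, hs, hsy⟩ := h1
    have h2 : pr2 s = 1 :=
      MonoidHom.mem_ker.mp (Abelianization.commutator_subset_ker pr2 hs)
    rw [hpr1] at hsy
    rw [hpr2] at h2
    exact ⟨s, hs, Prod.ext hsy h2⟩
  have hmkc : ∀ s : S, s ∈ commutator S →
      (QuotientGroup.mk s : S ⧸ Subgroup.zpowers z₀) ∈ commutator (S ⧸ Subgroup.zpowers z₀) := by
    intro s hs
    have h1 : (QuotientGroup.mk' (Subgroup.zpowers z₀)) s ∈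
        Subgroup.map (QuotientGroup.mk' (Subgroup.zpowers z₀)) (commutator S) :=
      Subgroup.mem_map_of_mem _ hs
    rw [commutator_def, Subgroup.map_commutator] at h1
    rw [commutator_def]
    exact Subgroup.commutator_mono le_top le_top h1
  have hσ₂s : Function.Surjective σ₂ := by
    intro qq
    obtain ⟨y, hy⟩ := hσs qq
    obtain ⟨c, hc⟩ := hlift y
    exact ⟨QuotientGroup.mk ⟨(y, c), hc⟩, by rw [hσ₂]; exact hy⟩
  have hker : ∀ t : S ⧸ Subgroup.zpowers z₀, σ₂ t = 1 →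
      ∃ (b : Γ) (hb : σ b = 1), t = QuotientGroup.mk ⟨(b, 1), hb1 b hb⟩ := by
    intro t ht
    obtain ⟨s, rfl⟩ := QuotientGroup.mk_surjective t
    rw [hσ₂] at ht
    have hs2 : π s.1.2 = 1 := by rw [← (hS s.1).mp s.2, ht, map_one]
    obtain ⟨j, hj⟩ := hC2 s.1.2 hs2
    have hb : σ (s.1.1 * a ^ j) = 1 := by rw [map_mul, map_zpow, ht, ha, one_zpow, mul_one]
    refine ⟨s.1.1 * a ^ j, hb, ?_⟩
    rw [QuotientGroup.eq]
    refine Subgroup.mem_zpowers_iff.mpr ⟨j, ?_⟩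
    apply Subtype.ext
    rw [hz₀pow]
    apply Prod.ext
    · show a ^ j = s.1.1⁻¹ * (s.1.1 * a ^ j)
      rw [inv_mul_cancel_left]
    · show ((g ^ d)⁻¹) ^ j = s.1.2⁻¹ * 1
      rw [mul_one, hj, inv_zpow, ← zpow_natCast g d, ← zpow_mul]
  have hσ₂c : σ₂.ker ≤ Subgroup.center (S ⧸ Subgroup.zpowers z₀) := by
    intro t ht
    obtain ⟨b, hb, rfl⟩ := hker t (MonoidHom.mem_ker.mp ht)
    rw [Subgroup.mem_center_iff]
    intro r
    obtain ⟨s, rfl⟩ := QuotientGroup.mk_surjective r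
    rw [← QuotientGroup.mk_mul, ← QuotientGroup.mk_mul]
    congr 1
    apply Subtype.ext; apply Prod.ext
    · exact hcen b hb s.1.1
    · exact mul_comm _ _
  have hσ₂d : σ₂.ker ≤ commutator (S ⧸ Subgroup.zpowers z₀) := by
    intro t ht
    obtain ⟨b, hb, rfl⟩ := hker t (MonoidHom.mem_ker.mp ht)
    obtain ⟨s, hs, hsb⟩ := hK b (hσd (MonoidHom.mem_ker.mpr hb))
    have h1 : s = ⟨(b, 1), hb1 b hb⟩ := Subtype.ext hsb
    rw [← h1]; exact hmkc s hs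
  -- the kernel of σ₂ is isomorphic to the kernel of σ
  obtain ⟨ι, hι⟩ : ∃ ι : σ.ker →* σ₂.ker, ∀ b : σ.ker, ((ι b : σ₂.ker) : S ⧸ Subgroup.zpowers z₀) =
      QuotientGroup.mk ⟨(b.1, 1), hb1 b.1 (MonoidHom.mem_ker.mp b.2)⟩ := by
    refine ⟨MonoidHom.mk' (fun b => ⟨QuotientGroup.mk ⟨(b.1, 1),
      hb1 b.1 (MonoidHom.mem_ker.mp b.2)⟩, MonoidHom.mem_ker.mpr (by
        rw [hσ₂]; exact MonoidHom.mem_ker.mp b.2)⟩) ?_, fun _ => rfl⟩
    intro b b'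
    apply Subtype.ext
    show (QuotientGroup.mk _ : S ⧸ Subgroup.zpowers z₀) = QuotientGroup.mk _ * QuotientGroup.mk _
    rw [← QuotientGroup.mk_mul]
    congr 1
    apply Subtype.ext; apply Prod.ext
    · rfl
    · show (1 : Multiplicative (ZMod (d * o))) = 1 * 1
      rw [mul_one]
  have hιinj : Function.Injective ι := by
    rw [injective_iff_map_eq_one]
    intro b hb
    have h1 := congrArg Subtype.val hb
    rw [hι] at h1
    have h1' : (QuotientGroup.mk ⟨(b.1, 1), hb1 b.1 (MonoidHom.mem_ker.mp b.2)⟩ :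
        S ⧸ Subgroup.zpowers z₀) = 1 := h1
    rw [QuotientGroup.eq_one_iff] at h1'
    obtain ⟨k, hk⟩ := Subgroup.mem_zpowers_iff.mp h1'
    have hk' := congrArg Subtype.val hk
    rw [hz₀pow] at hk'
    have hk1 : a ^ k = b.1 := congrArg Prod.fst hk'
    have hk2 : ((g ^ d)⁻¹) ^ k = 1 := congrArg Prod.snd hk'
    have h3 : a ^ (-k) = 1 := hC3 (-k) (by
      rw [zpow_mul, zpow_natCast, zpow_neg, ← inv_zpow]; exact hk2)
    rw [zpow_neg, inv_eq_one] at h3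
    apply Subtype.ext
    rw [← hk1, h3]; rfl
  have hιsurj : Function.Surjective ι := by
    intro t
    obtain ⟨b, hb, htb⟩ := hker t.1 (MonoidHom.mem_ker.mp t.2)
    exact ⟨⟨b, MonoidHom.mem_ker.mpr hb⟩, Subtype.ext (by rw [hι]; exact htb.symm)⟩
  have hk₂ : Nonempty (σ₂.ker ≃* A) :=
    ⟨(MulEquiv.ofBijective ι ⟨hιinj, hιsurj⟩).symm.trans e₁⟩
  refine ⟨Γ, S ⧸ Subgroup.zpowers z₀, iΓ, fΓ, inferInstance, inferInstance, σ, σ₂, hσ,
    ⟨hσ₂s, hσ₂c, hσ₂d⟩, ⟨e₁⟩, hk₂, ?_⟩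
  rintro ⟨e, he⟩
  have hE : ∀ y : Γ, σ₂ (e y) = σ y := fun y => DFunLike.congr_fun he y
  -- `e` is the canonical map on commutators
  have hfg : ∀ s : S, (e.toMonoidHom.comp pr1) s * ((QuotientGroup.mk' (Subgroup.zpowers z₀)) s)⁻¹ ∈
      Subgroup.center (S ⧸ Subgroup.zpowers z₀) := by
    intro s
    apply hσ₂c
    rw [MonoidHom.mem_ker, map_mul, map_inv]
    show σ₂ (e (pr1 s)) * (σ₂ (QuotientGroup.mk s))⁻¹ = 1
    rw [hE, hσ₂, hpr1, mul_inv_cancel]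
  have hagree := sc_eq_on_comm (e.toMonoidHom.comp pr1)
    (QuotientGroup.mk' (Subgroup.zpowers z₀)) hfg
  have hcan : ∀ y : Γ, y ∈ commutator Γ → ∃ s : S, s.1 = (y, 1) ∧ e y = QuotientGroup.mk s := by
    intro y hy
    obtain ⟨s, hs, hsy⟩ := hK y hy
    refine ⟨s, hsy, ?_⟩
    have h1 := hagree s hs
    have h2 : pr1 s = y := by rw [hpr1, hsy]
    have h3 : (e.toMonoidHom.comp pr1) s = e y := by
      show e (pr1 s) = e y
      rw [h2]
    rw [← h3, h1]; rfl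
  obtain ⟨x, hx⟩ := hσs q
  have hxd : x ^ d ∈ commutator Γ :=
    mem_commutator_of_map σ hσ _ (by rw [map_pow, hx]; exact hqd)
  obtain ⟨s, hs⟩ := QuotientGroup.mk_surjective (e x)
  have hsx : σ s.1.1 = q := by rw [← hσ₂, hs, hE, hx]
  have hc1 : π s.1.2 = π g := by rw [← (hS s.1).mp s.2, hsx, hlamq, hπg]
  obtain ⟨j, hj⟩ := hC2 (g⁻¹ * s.1.2) (by rw [map_mul, map_inv, hc1, inv_mul_cancel])
  have hcj : s.1.2 = g * g ^ ((d : ℤ) * j) := by rw [← hj, mul_inv_cancel_left]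
  obtain ⟨s', hs'1, hs'e⟩ := hcan (x ^ d) hxd
  have h5 : (QuotientGroup.mk s' : S ⧸ Subgroup.zpowers z₀) = QuotientGroup.mk (s ^ d) := by
    rw [← hs'e, map_pow, ← hs, QuotientGroup.mk_pow]
  rw [QuotientGroup.eq] at h5
  obtain ⟨i, hi⟩ := Subgroup.mem_zpowers_iff.mp h5
  have hi' := congrArg Subtype.val hi
  rw [hz₀pow] at hi'
  have hi1 : a ^ i = (x ^ d)⁻¹ * s.1.1 ^ d := by
    have := congrArg Prod.fst hi'
    have h6 : ((s'⁻¹ * s ^ d : S) : Γ × Multiplicative (ZMod (d * o))).1 =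
        (s'.1.1)⁻¹ * s.1.1 ^ d := rfl
    rw [h6, hs'1] at this
    exact this
  have hi2 : ((g ^ d)⁻¹) ^ i = s.1.2 ^ d := by
    have := congrArg Prod.snd hi'
    have h6 : ((s'⁻¹ * s ^ d : S) : Γ × Multiplicative (ZMod (d * o))).2 =
        (s'.1.2)⁻¹ * s.1.2 ^ d := rfl
    rw [h6, hs'1] at this
    simpa using this
  -- a'' = x⁻¹ * s.1.1 is in the kernel
  have ha2 : σ (x⁻¹ * s.1.1) = 1 := by rw [map_mul, map_inv, hx, hsx, inv_mul_cancel]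
  have hcomm : Commute x (x⁻¹ * s.1.1) := hcen _ ha2 x
  have hi3 : a ^ i = (x⁻¹ * s.1.1) ^ d := by
    have h7 : s.1.1 = x * (x⁻¹ * s.1.1) := by rw [mul_inv_cancel_left]
    rw [hi1]
    conv_lhs => rw [h7, hcomm.mul_pow, inv_mul_cancel_left]
  -- the exponent relation
  have h8 : g ^ ((d : ℤ) * (1 + (d : ℤ) * j + i)) = 1 := by
    have h9 : s.1.2 ^ d * (g ^ d) ^ i = 1 := by
      rw [← hi2, inv_zpow, inv_mul_cancel]
    rw [hcj, mul_pow, ← zpow_natCast (g ^ ((d : ℤ) * j)) d, ← zpow_mul, ← zpow_natCast g d,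
      ← zpow_mul, ← zpow_add, ← zpow_add] at h9
    rw [← h9]
    congr 1
    ring
  have h10 : a ^ (1 + (d : ℤ) * j + i) = 1 := hC3 _ h8
  have hcomm2 : Commute (a ^ (-j)) ((x⁻¹ * s.1.1)⁻¹) := by
    have : Commute a ((x⁻¹ * s.1.1)⁻¹) := (hac _).symm
    exact Commute.zpow_left this (-j)
  have h11 : (a ^ (-j) * (x⁻¹ * s.1.1)⁻¹) ^ d = a := by
    rw [hcomm2.mul_pow, inv_pow, ← hi3, ← zpow_natCast (a ^ (-j)) d, ← zpow_mul, ← zpow_neg,
      ← zpow_add]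
    have h12 : a ^ (-j * (d : ℤ) + -i) * a ^ (1 + (d : ℤ) * j + i) = a := by
      rw [← zpow_add]
      have : -j * (d : ℤ) + -i + (1 + (d : ℤ) * j + i) = 1 := by ring
      rw [this, zpow_one]
    rw [h10, mul_one] at h12
    exact h12
  exact hnp _ (by rw [map_mul, map_zpow, ha, one_zpow, one_mul, map_inv, ha2, inv_one]) h11

end Cfsg.Agent.Helper17.SchurUniq
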